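import Mathlib
import Cfsg.Agent.Lib.Helper99.C64.Defs

/-!
# C64 (S6000), package [BASIS]

Four matrices with the standard relations of `Z ⊗ 1, X ⊗ 1, 1 ⊗ Z, 1 ⊗ X` are simultaneously
conjugate to the standard ones.
-/

set_option autoImplicit false

namespace Cfsg.Agent.Lib.Helper67.C64

open Matrix Cfsg.Agent.Lib.Helper99.C64

universe u

variable {F : Type u} [Field F]

/-- one step: a non-zero fixed vector of an involution `a` anticommuting with an involution `b`. -/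
lemma fix_step (a b : M4 F) (ha : a * a = 1) (hb : b * b = 1) (hab : a * b = -(b * a))
    (v : Fin 4 → F) (hv : v ≠ 0) :
    ∃ u : Fin 4 → F, u ≠ 0 ∧ a *ᵥ u = u ∧ (u = v + a *ᵥ v ∨ u = b *ᵥ v) := by
  by_cases h : v + a *ᵥ v = 0
  · refine ⟨b *ᵥ v, ?_, ?_, Or.inr rfl⟩
    · intro h0
      apply hv
      have : b *ᵥ (b *ᵥ v) = v := by rw [mulVec_mulVec, hb, one_mulVec]
      rw [← this, h0, mulVec_zero]
    · have hav : a *ᵥ v = -v := by
        rw [eq_neg_iff_add_eq_zero, add_comm]; exact h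
      rw [mulVec_mulVec, hab, neg_mulVec, ← mulVec_mulVec, hav, mulVec_neg, neg_neg]
  · refine ⟨v + a *ᵥ v, h, ?_, Or.inl rfl⟩
    rw [mulVec_add, mulVec_mulVec, ha, one_mulVec, add_comm]

theorem pkgBasis : PkgBasis.{u} := by
  intro F _ h2 a1 b1 a2 b2 hrel
  obtain ⟨ha1, hb1, ha2, hb2, h11, h22, haa, ha1b2, hb1a2, hbb⟩ := hrel
  have h4 : (4 : F) ≠ 0 := by
    have : (4 : F) = 2 * 2 := by norm_num
    rw [this]; exact mul_ne_zero h2 h2
  -- vector rules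
  have R1 : ∀ v : Fin 4 → F, a1 *ᵥ (b1 *ᵥ v) = -(b1 *ᵥ (a1 *ᵥ v)) := by
    intro v; rw [mulVec_mulVec, h11, neg_mulVec, ← mulVec_mulVec]
  have R2 : ∀ v : Fin 4 → F, a1 *ᵥ (b2 *ᵥ v) = b2 *ᵥ (a1 *ᵥ v) := by
    intro v; rw [mulVec_mulVec, ha1b2, ← mulVec_mulVec]
  have R3 : ∀ v : Fin 4 → F, a2 *ᵥ (b1 *ᵥ v) = b1 *ᵥ (a2 *ᵥ v) := by
    intro v; rw [mulVec_mulVec, ← hb1a2, ← mulVec_mulVec]
  have R4 : ∀ v : Fin 4 → F, a2 *ᵥ (b2 *ᵥ v) = -(b2 *ᵥ (a2 *ᵥ v)) := by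
    intro v; rw [mulVec_mulVec, h22, neg_mulVec, ← mulVec_mulVec]
  have R5 : ∀ v : Fin 4 → F, b1 *ᵥ (b1 *ᵥ v) = v := by
    intro v; rw [mulVec_mulVec, hb1, one_mulVec]
  have R6 : ∀ v : Fin 4 → F, b2 *ᵥ (b2 *ᵥ v) = v := by
    intro v; rw [mulVec_mulVec, hb2, one_mulVec]
  have R7 : ∀ v : Fin 4 → F, b2 *ᵥ (b1 *ᵥ v) = b1 *ᵥ (b2 *ᵥ v) := by
    intro v; rw [mulVec_mulVec, ← hbb, ← mulVec_mulVec]
  have R8 : ∀ v : Fin 4 → F, a2 *ᵥ (a1 *ᵥ v) = a1 *ᵥ (a2 *ᵥ v) := by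
    intro v; rw [mulVec_mulVec, ← haa, ← mulVec_mulVec]
  -- the vector e0
  obtain ⟨e0, he0, hE1, hE2⟩ : ∃ e0 : Fin 4 → F, e0 ≠ 0 ∧ a1 *ᵥ e0 = e0 ∧ a2 *ᵥ e0 = e0 := by
    have hv : (Pi.single 0 1 : Fin 4 → F) ≠ 0 := by
      intro h; have := congrFun h 0; simp at this
    obtain ⟨u, hu, hau, -⟩ := fix_step a1 b1 ha1 hb1 h11 _ hv
    obtain ⟨w, hw, haw, hw'⟩ := fix_step a2 b2 ha2 hb2 h22 u hu
    refine ⟨w, hw, ?_, haw⟩
    rcases hw' with rfl | rfl
    · rw [mulVec_add, ← R8, hau]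
    · rw [R2, hau]
  -- the columns
  let c : Fin 4 → (Fin 4 → F) := ![e0, b2 *ᵥ e0, b1 *ᵥ e0, b1 *ᵥ (b2 *ᵥ e0)]
  have c0 : c 0 = e0 := rfl
  have c1 : c 1 = b2 *ᵥ e0 := rfl
  have c2 : c 2 = b1 *ᵥ e0 := rfl
  have c3 : c 3 = b1 *ᵥ (b2 *ᵥ e0) := rfl
  let H : M4 F := Matrix.of fun i k => c k i
  have hcol : ∀ k, H *ᵥ Pi.single k 1 = c k := by
    intro k; ext i; simp [H]
  have hlin : ∀ d : Fin 4 → F, H *ᵥ d = d 0 • c 0 + d 1 • c 1 + d 2 • c 2 + d 3 • c 3 := by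
    intro d; ext i
    simp [H, Matrix.mulVec, dotProduct, Fin.sum_univ_four]; ring
  have key : ∀ (a m : M4 F), (∀ k, a *ᵥ c k = H *ᵥ (m *ᵥ Pi.single k 1)) → a * H = H * m := by
    intro a m h
    apply Matrix.ext_of_mulVec_single
    intro k
    rw [← mulVec_mulVec, ← mulVec_mulVec, hcol, h]
  -- action on the columns
  have A10 : a1 *ᵥ c 0 = c 0 := by rw [c0, hE1]
  have A11 : a1 *ᵥ c 1 = c 1 := by rw [c1, R2, hE1]
  have A12 : a1 *ᵥ c 2 = -c 2 := by rw [c2, R1, hE1]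
  have A13 : a1 *ᵥ c 3 = -c 3 := by rw [c3, R1, R2, hE1]
  have A20 : a2 *ᵥ c 0 = c 0 := by rw [c0, hE2]
  have A21 : a2 *ᵥ c 1 = -c 1 := by rw [c1, R4, hE2]
  have A22 : a2 *ᵥ c 2 = c 2 := by rw [c2, R3, hE2]
  have A23 : a2 *ᵥ c 3 = -c 3 := by rw [c3, R3, R4, hE2, mulVec_neg]
  have B10 : b1 *ᵥ c 0 = c 2 := by rw [c0, c2]
  have B11 : b1 *ᵥ c 1 = c 3 := by rw [c1, c3]
  have B12 : b1 *ᵥ c 2 = c 0 := by rw [c2, R5, c0]
  have B13 : b1 *ᵥ c 3 = c 1 := by rw [c3, R5, c1]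
  have B20 : b2 *ᵥ c 0 = c 1 := by rw [c0, c1]
  have B21 : b2 *ᵥ c 1 = c 0 := by rw [c1, R6, c0]
  have B22 : b2 *ᵥ c 2 = c 3 := by rw [c2, R7, c3]
  have B23 : b2 *ᵥ c 3 = c 2 := by rw [c3, R7, R6, c2]
  have I1 : a1 * H = H * mZa F := by
    apply key; intro k; rw [hlin]
    fin_cases k <;> simp [mZa, A10, A11, A12, A13]
  have I2 : b1 * H = H * mXa F := by
    apply key; intro k; rw [hlin]
    fin_cases k <;> simp [mXa, B10, B11, B12, B13]
  have I3 : a2 * H = H * mZb F := by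
    apply key; intro k; rw [hlin]
    fin_cases k <;> simp [mZb, A20, A21, A22, A23]
  have I4 : b2 * H = H * mXb F := by
    apply key; intro k; rw [hlin]
    fin_cases k <;> simp [mXb, B20, B21, B22, B23]
  -- the columns are non-zero
  have hc0 : c 0 ≠ 0 := he0
  have hc1 : c 1 ≠ 0 := by
    intro h; apply he0; rw [← c0, ← B21, h, mulVec_zero]
  have hc2 : c 2 ≠ 0 := by
    intro h; apply he0; rw [← c0, ← B12, h, mulVec_zero]
  have hc3 : c 3 ≠ 0 := by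
    intro h; apply hc1; rw [← B13, h, mulVec_zero]
  have hdet : H.det ≠ 0 := by
    intro h0
    obtain ⟨d, hd, hHd⟩ := Matrix.exists_mulVec_eq_zero_iff.mpr h0
    rw [hlin] at hHd
    have hs1 : d 0 • c 0 + d 1 • c 1 - d 2 • c 2 - d 3 • c 3 = 0 := by
      have := congrArg (fun v => a1 *ᵥ v) hHd
      simpa [mulVec_add, mulVec_smul, A10, A11, A12, A13, sub_eq_add_neg] using this
    have hs2 : d 0 • c 0 - d 1 • c 1 + d 2 • c 2 - d 3 • c 3 = 0 := by
      have := congrArg (fun v => a2 *ᵥ v) hHd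
      simpa [mulVec_add, mulVec_smul, A20, A21, A22, A23, sub_eq_add_neg] using this
    have hs12 : d 0 • c 0 - d 1 • c 1 - d 2 • c 2 + d 3 • c 3 = 0 := by
      have := congrArg (fun v => a2 *ᵥ v) hs1
      simpa [mulVec_add, mulVec_sub, mulVec_neg, mulVec_smul, A20, A21, A22, A23, sub_eq_add_neg] using this
    have e0' : (4 : F) • (d 0 • c 0) = 0 := by
      linear_combination (norm := module) hHd + hs1 + hs2 + hs12
    have e1' : (4 : F) • (d 1 • c 1) = 0 := by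
      linear_combination (norm := module) hHd + hs1 - hs2 - hs12
    have e2' : (4 : F) • (d 2 • c 2) = 0 := by
      linear_combination (norm := module) hHd - hs1 + hs2 - hs12
    have e3' : (4 : F) • (d 3 • c 3) = 0 := by
      linear_combination (norm := module) hHd - hs1 - hs2 + hs12
    have d0 : d 0 = 0 := by
      rcases smul_eq_zero.mp e0' with h | h
      · exact absurd h h4
      · rcases smul_eq_zero.mp h with h | h
        · exact h
        · exact absurd h hc0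
    have d1 : d 1 = 0 := by
      rcases smul_eq_zero.mp e1' with h | h
      · exact absurd h h4
      · rcases smul_eq_zero.mp h with h | h
        · exact h
        · exact absurd h hc1
    have d2 : d 2 = 0 := by
      rcases smul_eq_zero.mp e2' with h | h
      · exact absurd h h4
      · rcases smul_eq_zero.mp h with h | h
        · exact h
        · exact absurd h hc2
    have d3 : d 3 = 0 := by
      rcases smul_eq_zero.mp e3' with h | h
      · exact absurd h h4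
      · rcases smul_eq_zero.mp h with h | h
        · exact h
        · exact absurd h hc3
    apply hd
    funext k
    fin_cases k
    · exact d0
    · exact d1
    · exact d2
    · exact d3
  have hinv : ((Matrix.GeneralLinearGroup.mkOfDetNeZero H hdet)⁻¹ : GL (Fin 4) F).val * H = 1 :=
    Units.inv_mul (Matrix.GeneralLinearGroup.mkOfDetNeZero H hdet)
  refine ⟨Matrix.GeneralLinearGroup.mkOfDetNeZero H hdet, ?_, ?_, ?_, ?_⟩
  · show ((Matrix.GeneralLinearGroup.mkOfDetNeZero H hdet)⁻¹ : GL (Fin 4) F).val * a1 * H = mZa F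
    rw [mul_assoc, I1, ← mul_assoc, hinv, one_mul]
  · show ((Matrix.GeneralLinearGroup.mkOfDetNeZero H hdet)⁻¹ : GL (Fin 4) F).val * b1 * H = mXa F
    rw [mul_assoc, I2, ← mul_assoc, hinv, one_mul]
  · show ((Matrix.GeneralLinearGroup.mkOfDetNeZero H hdet)⁻¹ : GL (Fin 4) F).val * a2 * H = mZb F
    rw [mul_assoc, I3, ← mul_assoc, hinv, one_mul]
  · show ((Matrix.GeneralLinearGroup.mkOfDetNeZero H hdet)⁻¹ : GL (Fin 4) F).val * b2 * H = mXb F
    rw [mul_assoc, I4, ← mul_assoc, hinv, one_mul]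

end Cfsg.Agent.Lib.Helper67.C64
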