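import Mathlib
import Cfsg.Agent.Lib.Helper99.C64.Defs

/-!
# C64 (S6000), package [CENTTR]

For `y` of odd order in the normalizer of the standard group `R0`:
`4 * tr y * tr y⁻¹ = |C_{R0}(y)|` in `F`.
-/

set_option autoImplicit false

namespace Cfsg.Agent.Lib.Helper67.C64

open Matrix Cfsg.Agent.Lib.Helper99.C64

universe u

theorem pkgCentTr_of (h : PkgR0.{u}) : PkgCentTr.{u} := by
  classical
  intro F _ _ h2 ι hι y hy m hm hym
  obtain ⟨hcard, htr, hsc4, -, -, -, hcomm, -, -⟩ := h F h2 ι hι
  have h4 : (4 : F) ≠ 0 := by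
    have : (4 : F) = 2 * 2 := by norm_num
    rw [this]; exact mul_ne_zero h2 h2
  set S : Finset (GL (Fin 4) F) := Finset.univ.filter (· ∈ R0 ι) with hS
  have hSmem : ∀ s, s ∈ S ↔ s ∈ R0 ι := by intro s; simp [hS]
  have hScard : S.card = 64 := by
    rw [← hcard, Nat.card_eq_fintype_card, Fintype.card_subtype]
  have hinvmul : ∀ g : GL (Fin 4) F, ((g⁻¹ : GL (Fin 4) F) : M4 F) * (g : M4 F) = 1 :=
    fun g => Units.inv_mul g
  have hmulinv : ∀ g : GL (Fin 4) F, (g : M4 F) * ((g⁻¹ : GL (Fin 4) F) : M4 F) = 1 :=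
    fun g => Units.mul_inv g
  -- averaging operator
  have hT : ∀ X : M4 F, ∑ s ∈ S, (s : M4 F) * X * ((s⁻¹ : GL (Fin 4) F) : M4 F)
      = (16 * Matrix.trace X) • (1 : M4 F) := by
    intro X
    set T : M4 F := ∑ s ∈ S, (s : M4 F) * X * ((s⁻¹ : GL (Fin 4) F) : M4 F) with hTdef
    have hcommT : ∀ g ∈ R0 ι, (g : M4 F) * T = T * (g : M4 F) := by
      intro g hg
      have e1 : T * (g : M4 F)
          = ∑ s ∈ S, (g : M4 F) * ((s : M4 F) * X * ((s⁻¹ : GL (Fin 4) F) : M4 F)) := by
        rw [hTdef, Finset.sum_mul]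
        symm
        apply Finset.sum_equiv (Equiv.mulLeft g)
        · intro s
          rw [hSmem, hSmem]
          exact (Subgroup.mul_mem_cancel_left (R0 ι) hg).symm
        · intro s _
          simp only [Equiv.coe_mulLeft, _root_.mul_inv_rev, Units.val_mul]
          simp only [mul_assoc, hinvmul, mul_one]
      rw [e1, hTdef, Finset.mul_sum]
    obtain ⟨c, hc⟩ := hcomm T hcommT
    have htrT : Matrix.trace T = 64 * Matrix.trace X := by
      rw [hTdef, Matrix.trace_sum]
      have : ∀ s ∈ S, Matrix.trace ((s : M4 F) * X * ((s⁻¹ : GL (Fin 4) F) : M4 F))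
          = Matrix.trace X := by
        intro s _
        rw [Matrix.trace_mul_comm, ← mul_assoc, hinvmul, one_mul]
      rw [Finset.sum_congr rfl this, Finset.sum_const, hScard]
      simp
    have hc4 : c * 4 = 64 * Matrix.trace X := by
      rw [← htrT, hc, Matrix.trace_smul, Matrix.trace_one]; simp
    have hc' : c = 16 * Matrix.trace X := by
      apply mul_right_cancel₀ h4; rw [hc4]; ring
    rw [hc, hc']
  -- `y` normalizes `R0`
  have hyN : ∀ s ∈ R0 ι, y⁻¹ * s * y ∈ R0 ι := by
    intro s hs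
    have hy' : y ∈ Subgroup.normalizer (R0 ι : Set (GL (Fin 4) F)) := hy
    have := (Subgroup.mem_normalizer_iff.mp hy' (y⁻¹ * s * y))
    rw [this]
    have e : y * (y⁻¹ * s * y) * y⁻¹ = s := by group
    rw [e]; exact hs
  -- the traces of the commutators
  have hterm : ∀ s ∈ S, Matrix.trace (((y⁻¹ : GL (Fin 4) F) : M4 F) *
      ((s : M4 F) * (y : M4 F) * ((s⁻¹ : GL (Fin 4) F) : M4 F)))
      = if s ∈ Subgroup.centralizer {y} then (4 : F) else 0 := by
    intro s hs
    rw [hSmem] at hs
    have hw : y⁻¹ * s * y * s⁻¹ ∈ R0 ι := (R0 ι).mul_mem (hyN s hs) ((R0 ι).inv_mem hs)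
    have hwval : ((y⁻¹ * s * y * s⁻¹ : GL (Fin 4) F) : M4 F) = ((y⁻¹ : GL (Fin 4) F) : M4 F) *
        ((s : M4 F) * (y : M4 F) * ((s⁻¹ : GL (Fin 4) F) : M4 F)) := by
      simp only [Units.val_mul, mul_assoc]
    rw [← hwval]
    by_cases hcen : s ∈ Subgroup.centralizer {y}
    · rw [if_pos hcen]
      have hsy : y * s = s * y := by
        have := Subgroup.mem_centralizer_iff.mp hcen y (Set.mem_singleton y)
        exact this
      have : y⁻¹ * s * y * s⁻¹ = 1 := by
        rw [mul_assoc y⁻¹ s y, ← hsy]; group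
      rw [this]
      simp [Matrix.trace_one]
    · rw [if_neg hcen]
      rcases htr _ hw with hsc | h0
      · exfalso
        obtain ⟨ε, hε⟩ := hsc
        have hε4 : ε ^ 4 = 1 := hsc4 _ hw ε hε
        -- s * y = ε • (y * s)
        have hsy : (s : M4 F) * (y : M4 F) = ε • ((y : M4 F) * (s : M4 F)) := by
          have e1 : (y : M4 F) * ((y⁻¹ * s * y * s⁻¹ : GL (Fin 4) F) : M4 F) * (s : M4 F)
              = (s : M4 F) * (y : M4 F) := by
            rw [← Units.val_mul, ← Units.val_mul, ← Units.val_mul]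
            congr 1
            group
          rw [← e1, hε]
          simp
        have hpow : ∀ k : ℕ, (s : M4 F) * (y : M4 F) ^ k = ε ^ k • ((y : M4 F) ^ k * (s : M4 F)) := by
          intro k
          induction k with
          | zero => simp
          | succ k ih =>
            rw [pow_succ, ← mul_assoc, ih, Matrix.smul_mul, mul_assoc, hsy, Matrix.mul_smul,
              smul_smul, ← mul_assoc, pow_succ]
        have hym' : (y : M4 F) ^ m = 1 := by
          rw [← Units.val_pow_eq_pow_val, hym]; rfl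
        have hεm : ε ^ m = 1 := by
          have := hpow m
          rw [hym', mul_one, one_mul] at this
          -- s = ε^m • s
          have h1 : (ε ^ m - 1) • (s : M4 F) = 0 := by
            rw [sub_smul, one_smul, ← this, sub_self]
          have h2 : (ε ^ m - 1) • (1 : M4 F) = 0 := by
            have := congrArg (fun M : M4 F => M * ((s⁻¹ : GL (Fin 4) F) : M4 F)) h1
            simpa [Matrix.smul_mul, hmulinv] using this
          have h3 := congrFun (congrFun h2 0) 0
          simp at h3
          exact sub_eq_zero.mp h3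
        have hε1 : ε = 1 := by
          have hg : ε ^ Nat.gcd 4 m = 1 := pow_gcd_eq_one.mpr ⟨hε4, hεm⟩
          have hcop : Nat.gcd 4 m = 1 := by
            have : Nat.Coprime 2 m := Nat.coprime_two_left.mpr hm
            exact Nat.Coprime.pow_left 2 this
          rw [hcop, pow_one] at hg
          exact hg
        apply hcen
        rw [Subgroup.mem_centralizer_iff]
        intro g hg
        rw [Set.mem_singleton_iff] at hg
        subst hg
        apply Units.ext
        rw [Units.val_mul, Units.val_mul, hsy, hε1, one_smul]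
      · exact h0
  -- two evaluations of the sum
  have hsum1 : ∑ s ∈ S, Matrix.trace (((y⁻¹ : GL (Fin 4) F) : M4 F) *
      ((s : M4 F) * (y : M4 F) * ((s⁻¹ : GL (Fin 4) F) : M4 F)))
      = 16 * Matrix.trace (y : M4 F) * Matrix.trace ((y⁻¹ : GL (Fin 4) F) : M4 F) := by
    rw [← Matrix.trace_sum, ← Finset.mul_sum, hT, Matrix.mul_smul, mul_one, Matrix.trace_smul]
    simp
  have hsum2 : ∑ s ∈ S, Matrix.trace (((y⁻¹ : GL (Fin 4) F) : M4 F) *
      ((s : M4 F) * (y : M4 F) * ((s⁻¹ : GL (Fin 4) F) : M4 F)))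
      = 4 * (Nat.card (C0 ι y) : F) := by
    rw [Finset.sum_congr rfl hterm, Finset.sum_ite, Finset.sum_const, Finset.sum_const_zero,
      add_zero]
    have : Nat.card (C0 ι y) = (S.filter (· ∈ Subgroup.centralizer {y})).card := by
      rw [Nat.card_eq_fintype_card, Fintype.card_subtype, hS, Finset.filter_filter]
      congr 1
      ext a
      simp [C0, Subgroup.mem_inf]
    rw [this]
    simp [mul_comm]
  have hfin : 4 * (4 * Matrix.trace (y : M4 F) * Matrix.trace ((y⁻¹ : GL (Fin 4) F) : M4 F))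
      = 4 * (Nat.card (C0 ι y) : F) := by
    rw [← hsum2, hsum1]; ring
  exact mul_left_cancel₀ h4 hfin

end Cfsg.Agent.Lib.Helper67.C64
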